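import Cfsg.Agent.Schur.Swap
import Cfsg.Agent.SchurG.Co3.Main

set_option autoImplicit false
set_option maxRecDepth 100000

namespace Cfsg.Agent.Schur.Co3
open Cfsg.Agent.Comp Cfsg.Agent.Schur

theorem card : Finite Cfsg.Agent.SchurG.Co3.G ∧ Nat.card Cfsg.Agent.SchurG.Co3.G = 495766656000 := ⟨Cfsg.Agent.SchurG.Co3.card.1, Cfsg.Agent.SchurG.Co3.card.2.1⟩

theorem allIn : AllIn Cfsg.Agent.SchurG.Co3.phi.range Cfsg.Agent.SchurG.Co3.T :=
  allIn_of_rep Cfsg.Agent.SchurG.Co3.rep Cfsg.Agent.SchurG.Co3.eqs (L' := 14) rfl (by decide +kernel)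

end Cfsg.Agent.Schur.Co3
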